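import Cfsg.Agent.OD.Pre
import Cfsg.Agent.H6.Top2
import Cfsg.Agent.H6.S4A.C
set_option autoImplicit false
set_option maxRecDepth 100000
set_option Elab.async false
set_option linter.all false
namespace CfH6.S4A
open CfH6 MulAction
theorem e0_0 : EqsOk nets0 eqs0 96 7 0 7 :=
  eqsOk_of _ _ _ _ 0 7 _ (by decide) (by decide +kernel)
theorem ok0 : okNets 96 nets0 = true := by decide +kernel
theorem x1_0 : NxOk nets0 ws1 nets1 6 96 7 96 0 7 :=
  nxOk_of _ _ _ _ _ _ _ 0 7 _ (by decide) (by decide +kernel)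
theorem sx1 : sideNx ws1 nets1 6 96 7 96 = true := by decide +kernel
theorem x2_0 : NxOk nets1 ws2 nets2 3 96 7 20 0 7 :=
  nxOk_of _ _ _ _ _ _ _ 0 7 _ (by decide) (by decide +kernel)
theorem sx2 : sideNx ws2 nets2 6 96 7 20 = true := by decide +kernel
theorem x3_0 : NxOk nets2 ws3 nets3 2 20 5 16 0 5 :=
  nxOk_of _ _ _ _ _ _ _ 0 5 _ (by decide) (by decide +kernel)
theorem sx3 : sideNx ws3 nets3 3 20 5 16 = true := by decide +kernel
theorem oi1_0 : (Nat.blt 0 6 && Nat.beq (orbN nets1 6 12 (Nat.shiftLeft 1 20)) S1) = true := by decide +kernel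
theorem ci1 : (Nat.beq (chkInv nets1 6 S1) 0 && S1.testBit 20) = true := by decide +kernel
theorem oi2_0 : (Nat.blt 0 6 && Nat.beq (orbN nets1 6 12 (Nat.shiftLeft 1 14)) S2) = true := by decide +kernel
theorem ci2 : (Nat.beq (chkInv nets1 6 S2) 0 && S2.testBit 14) = true := by decide +kernel
theorem cm2 : chkMx 96 nets0 6 ws1 6 85 w2 14 J2 lBig = true := by decide +kernel
theorem cm1 : chkMx 96 nets0 6 ws1 6 85 w1 20 J1 lBig = true := by decide +kernel
theorem og3 : Nat.ble 12 (popc 4 (orbN nets3 2 6 (Nat.shiftLeft 1 2))) = true := by decide +kernel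
theorem og2 : Nat.ble 15 (popc 5 (orbN nets2 3 6 (Nat.shiftLeft 1 1))) = true := by decide +kernel
theorem pw0 : (allLt 6 (wpow [1, 4, 5, 2] (17 ^ 1)) && bs'.all fun b => Nat.blt b 96 && Nat.beq (chkMap nets0 (wpow [1, 4, 5, 2] (17 ^ 1)) b b) 0) = true := by decide +kernel
end CfH6.S4A
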